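import Mathlib

/-!
# `PSL₂(F)` has trivial centre, for any field `F`.
-/

set_option autoImplicit false

namespace Cfsg.Agent.Lib.Classical.LowOmega

open Matrix

variable {F : Type*} [Field F]

/-- The centre of `PSL₂(F)` is trivial. -/
theorem center_psl_two_eq_bot :
    Subgroup.center (Matrix.ProjectiveSpecialLinearGroup (Fin 2) F) = ⊥ := by
  classical
  rw [eq_bot_iff]
  intro x hx
  obtain ⟨g, rfl⟩ := QuotientGroup.mk_surjective x
  rw [Subgroup.mem_bot, QuotientGroup.eq_one_iff]
  rw [Subgroup.mem_center_iff] at hx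
  have key : ∀ y : Matrix.SpecialLinearGroup (Fin 2) F,
      g * y * g⁻¹ * y⁻¹ ∈ Subgroup.center (Matrix.SpecialLinearGroup (Fin 2) F) := by
    intro y
    rw [← QuotientGroup.eq_one_iff]
    have := hx (y : Matrix.ProjectiveSpecialLinearGroup (Fin 2) F)
    simp only [QuotientGroup.mk_mul, QuotientGroup.mk_inv]
    rw [mul_inv_eq_one, mul_inv_eq_iff_eq_mul]
    exact this.symm
  have hdet : g.1 0 0 * g.1 1 1 - g.1 0 1 * g.1 1 0 = 1 := by
    have := g.2
    rwa [Matrix.det_fin_two] at this
  -- central elements are scalar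
  have hcen : ∀ z ∈ Subgroup.center (Matrix.SpecialLinearGroup (Fin 2) F),
      z.1 0 1 = 0 ∧ z.1 1 0 = 0 ∧ z.1 1 1 = z.1 0 0 := by
    intro z hz
    obtain ⟨r, hr, hrz⟩ := Matrix.SpecialLinearGroup.mem_center_iff.mp hz
    rw [← hrz]
    simp [Matrix.scalar_apply, Matrix.diagonal]
  -- commutation equations
  have heq : ∀ y : Matrix.SpecialLinearGroup (Fin 2) F,
      ∃ r : F, g.1 * y.1 = r • (y.1 * g.1) := by
    intro y
    obtain ⟨h01, h10, h11⟩ := hcen _ (key y)
    set z := g * y * g⁻¹ * y⁻¹ with hz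
    refine ⟨z.1 0 0, ?_⟩
    have e : g * y = z * (y * g) := by
      rw [hz]; group
    have e' : g.1 * y.1 = z.1 * (y.1 * g.1) := congrArg Subtype.val e
    have hs : z.1 = (z.1 0 0) • (1 : Matrix (Fin 2) (Fin 2) F) := by
      ext i j
      fin_cases i <;> fin_cases j <;> simp [h01, h10, h11]
    rw [e', hs]
    simp
  let u : Matrix.SpecialLinearGroup (Fin 2) F := ⟨!![1, 1; 0, 1], by simp [Matrix.det_fin_two]⟩
  let v : Matrix.SpecialLinearGroup (Fin 2) F := ⟨!![1, 0; 1, 1], by simp [Matrix.det_fin_two]⟩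
  obtain ⟨r, hr⟩ := heq u
  obtain ⟨s, hs⟩ := heq v
  have r00 := congrFun (congrFun hr 0) 0
  have r01 := congrFun (congrFun hr 0) 1
  have r10 := congrFun (congrFun hr 1) 0
  have r11 := congrFun (congrFun hr 1) 1
  have s00 := congrFun (congrFun hs 0) 0
  have s01 := congrFun (congrFun hs 0) 1
  have s10 := congrFun (congrFun hs 1) 0
  have s11 := congrFun (congrFun hs 1) 1
  simp [u, v, Matrix.mul_apply, Fin.sum_univ_two, Matrix.vecMul, dotProduct] at r00 r01 r10 r11 s00 s01 s10 s11
  set a := g.1 0 0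
  set b := g.1 0 1
  set c := g.1 1 0
  set d := g.1 1 1
  have hc2 : c * c = 0 := by
    linear_combination c * r11 - d * r10
  have hc : c = 0 := by simpa using hc2
  have hb2 : b * b = 0 := by
    linear_combination b * s00 - a * s01
  have hb : b = 0 := by simpa using hb2
  rw [hc] at r00 hdet
  rw [hb] at r01 hdet
  have hr1 : r = 1 := by
    have h1 : a * (r - 1) = 0 := by linear_combination -r00
    have ha : a ≠ 0 := by
      rintro h
      rw [h] at hdet
      simp at hdet
    rcases mul_eq_zero.mp h1 with h | h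
    · exact absurd h ha
    · exact sub_eq_zero.mp h
  rw [hr1] at r01
  have had : a = d := by simpa using r01
  apply Matrix.SpecialLinearGroup.mem_center_iff.mpr
  refine ⟨a, ?_, ?_⟩
  · simp only [Fintype.card_fin]
    rw [← had] at hdet
    linear_combination hdet
  · ext i j
    fin_cases i <;> fin_cases j
    · simp [a]
    · simpa [Matrix.scalar_apply, Matrix.diagonal] using hb.symm
    · simpa [Matrix.scalar_apply, Matrix.diagonal] using hc.symm
    · simpa [Matrix.scalar_apply, Matrix.diagonal] using had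

end Cfsg.Agent.Lib.Classical.LowOmega
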