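import Mathlib
import Cfsg.Prelude.Def_Classical
import Cfsg.Agent.Lib.Classical.MatrixBridge

/-!
# Recognising `PΩ` from a representation

A generic recognition theorem: if `Φ : G →* O` has image inside `[O, O]`, and the order of the image
is the order of `[O, O]`, then `[O, O] / Z([O, O])` is identified with `G / Z(G)` as soon as
`G / Z(G)` is centreless and `ker Φ` is central.  We also give the constructor of a homomorphism into
an isometry group from a representation on a model space.
-/

set_option autoImplicit false

namespace Cfsg.Agent.Lib.Classical.LowOmega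

open Matrix Cfsg Cfsg.Agent.Lib.Classical.MatrixBridge

section quotient

variable {G H T : Type*} [Group G] [Group H] [Group T]

/-- Comparison of central quotients along a surjection with central kernel. -/
theorem quotient_center_equiv (f : G →* H) (hf : Function.Surjective f) (π : G →* T)
    (hπ : Function.Surjective π) (hπker : π.ker = Subgroup.center G) (hT : Subgroup.center T = ⊥)
    (hker : f.ker ≤ π.ker) : Nonempty (H ⧸ Subgroup.center H ≃* T) := by
  let q : G →* H ⧸ Subgroup.center H := (QuotientGroup.mk' (Subgroup.center H)).comp f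
  have hq : Function.Surjective q :=
    (QuotientGroup.mk'_surjective _).comp hf
  have hqker : q.ker = π.ker := by
    ext g
    rw [MonoidHom.mem_ker]
    have hg : q g = 1 ↔ f g ∈ Subgroup.center H := by
      show (QuotientGroup.mk (f g) : H ⧸ Subgroup.center H) = 1 ↔ _
      exact QuotientGroup.eq_one_iff _
    rw [hg]
    constructor
    · intro hc
      rw [Subgroup.mem_center_iff] at hc
      have hcent : π g ∈ Subgroup.center T := by
        rw [Subgroup.mem_center_iff]
        intro t
        obtain ⟨x, rfl⟩ := hπ t
        have h1 : x * g * x⁻¹ * g⁻¹ ∈ f.ker := by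
          rw [MonoidHom.mem_ker]
          simp only [map_mul, map_inv]
          rw [hc (f x)]
          simp
        have h2 := hker h1
        rw [MonoidHom.mem_ker] at h2
        simp only [map_mul, map_inv] at h2
        exact mul_inv_eq_iff_eq_mul.mp (mul_inv_eq_one.mp h2)
      rw [hT, Subgroup.mem_bot] at hcent
      exact hcent
    · intro hg'
      rw [hπker, Subgroup.mem_center_iff] at hg'
      rw [Subgroup.mem_center_iff]
      intro t
      obtain ⟨x, rfl⟩ := hf t
      rw [← map_mul, ← map_mul, hg' x]
  exact ⟨(QuotientGroup.quotientKerEquivOfSurjective q hq).symm.trans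
    ((QuotientGroup.quotientMulEquivOfEq hqker).trans
      (QuotientGroup.quotientKerEquivOfSurjective π hπ))⟩

/-- The recognition theorem. -/
theorem commutator_quotient_equiv {O : Type*} [Group O] [Finite O] (Φ : G →* O) (π : G →* T)
    (hπ : Function.Surjective π) (hπker : π.ker = Subgroup.center G) (hT : Subgroup.center T = ⊥)
    (hker : Φ.ker ≤ π.ker) (hle : ∀ g, Φ g ∈ commutator O)
    (hcard : (commutator O).index * Nat.card Φ.range = Nat.card O) :
    Nonempty (↥(commutator O) ⧸ Subgroup.center ↥(commutator O) ≃* T) := by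
  have hrange : Φ.range = commutator O := by
    apply Subgroup.eq_of_le_of_card_ge
    · rintro _ ⟨g, rfl⟩
      exact hle g
    · have h1 := Subgroup.index_mul_card (commutator O)
      have hpos : 0 < (commutator O).index := by
        rcases Nat.eq_zero_or_pos (commutator O).index with h | h
        · rw [h, zero_mul] at h1
          have : 0 < Nat.card O := Nat.card_pos
          omega
        · exact h
      apply le_of_eq
      apply Nat.eq_of_mul_eq_mul_left hpos
      rw [h1, hcard]
  let f : G →* ↥(commutator O) := Φ.codRestrict _ hle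
  have hf : Function.Surjective f := by
    rintro ⟨y, hy⟩
    rw [← hrange] at hy
    obtain ⟨g, rfl⟩ := hy
    exact ⟨g, rfl⟩
  apply quotient_center_equiv f hf π hπ hπker hT
  intro g hg
  apply hker
  rw [MonoidHom.mem_ker] at hg ⊢
  exact congrArg Subtype.val hg

/-- The order of the range of a homomorphism, from a finite domain. -/
theorem card_mul_card_range {G O : Type*} [Group G] [Finite G] [Group O] (Φ : G →* O) :
    Nat.card Φ.ker * Nat.card Φ.range = Nat.card G := by
  have h1 := Subgroup.card_eq_card_quotient_mul_card_subgroup Φ.ker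
  have h2 : Nat.card (G ⧸ Φ.ker) = Nat.card Φ.range :=
    Nat.card_congr (QuotientGroup.quotientKerEquivRange Φ).toEquiv
  rw [h2] at h1
  rw [h1, mul_comm]

end quotient

section rep

variable {F : Type*} [Field F] {ι : Type} [Fintype ι] [DecidableEq ι] {G : Type*} [Group G]
  {V : Type*} [AddCommGroup V] [Module F V]

/-- A homomorphism to an isometry group from a representation on a model of the form. -/
noncomputable def homOfRep (Qf : (ι → F) → F) (e : (ι → F) ≃ₗ[F] V) (QV : V → F)
    (he : ∀ x, QV (e x) = Qf x) (ρ : G →* (V ≃ₗ[F] V)) (hρ : ∀ g v, QV (ρ g v) = QV v) :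
    G →* isometryGroup F Qf where
  toFun g := ⟨glToLin.symm (e.trans ((ρ g).trans e.symm)), by
    intro u _
    show Qf ((((glToLin.symm (e.trans ((ρ g).trans e.symm))) : GL ι F) : Matrix ι ι F) *ᵥ u) = Qf u
    rw [glToLin_symm_mulVec, ← he, ← he u]
    simp [hρ]⟩
  map_one' := by
    apply Subtype.ext
    apply glToLin.injective
    ext x i
    simp
  map_mul' a b := by
    apply Subtype.ext
    apply glToLin.injective
    ext x i
    simp [LinearEquiv.mul_apply]

theorem homOfRep_mulVec (Qf : (ι → F) → F) (e : (ι → F) ≃ₗ[F] V) (QV : V → F)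
    (he : ∀ x, QV (e x) = Qf x) (ρ : G →* (V ≃ₗ[F] V)) (hρ : ∀ g v, QV (ρ g v) = QV v) (g : G)
    (x : ι → F) :
    ((homOfRep Qf e QV he ρ hρ g : isometryGroup F Qf) : GL ι F).1 *ᵥ x = e.symm (ρ g (e x)) := by
  show ((glToLin.symm (e.trans ((ρ g).trans e.symm)) : GL ι F) : Matrix ι ι F) *ᵥ x = _
  rw [glToLin_symm_mulVec]
  rfl

theorem mem_ker_homOfRep (Qf : (ι → F) → F) (e : (ι → F) ≃ₗ[F] V) (QV : V → F)
    (he : ∀ x, QV (e x) = Qf x) (ρ : G →* (V ≃ₗ[F] V)) (hρ : ∀ g v, QV (ρ g v) = QV v) (g : G) :
    g ∈ (homOfRep Qf e QV he ρ hρ).ker ↔ g ∈ ρ.ker := by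
  rw [MonoidHom.mem_ker, MonoidHom.mem_ker]
  constructor
  · intro h
    ext v
    have h1 := homOfRep_mulVec Qf e QV he ρ hρ g (e.symm v)
    rw [h] at h1
    simp only [OneMemClass.coe_one, Units.val_one, Matrix.one_mulVec, LinearEquiv.apply_symm_apply] at h1
    have := congrArg e h1
    simpa using this.symm
  · intro h
    apply Subtype.ext
    apply glToLin.injective
    apply LinearEquiv.ext
    intro x
    rw [glToLin_apply, homOfRep_mulVec, h]
    simp

end rep


section counting

variable {G O : Type*} [Group G] [Group O]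

/-- The order count: if `ker Φ = {1, z}`, `[O : O'] = 4` when `z ≠ 1`, `= 2` when `z = 1`, and `|O| = 2 |G|`,
then the index times the order of the range is the order of `O`. -/
theorem index_mul_card_range [Finite G] (Φ : G →* O) (z : G) (hz : z ∈ Φ.ker)
    (hk : ∀ g ∈ Φ.ker, g = 1 ∨ g = z) (hne : z ≠ 1 → (commutator O).index = 4)
    (he : z = 1 → (commutator O).index = 2) (hO : Nat.card O = 2 * Nat.card G) :
    (commutator O).index * Nat.card Φ.range = Nat.card O := by
  have h := card_mul_card_range Φ
  rw [hO, ← h]
  by_cases h1 : z = 1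
  · have hb : Φ.ker = ⊥ := by
      rw [eq_bot_iff]
      intro g hg
      rcases hk g hg with h' | h'
      · exact h'
      · rw [h', h1]; exact Subgroup.one_mem _
    rw [he h1, hb]
    simp
  · have hc : Nat.card Φ.ker = 2 := by
      classical
      have hset : (Φ.ker : Set G) = (({1, z} : Finset G) : Set G) := by
        ext g
        simp only [Finset.coe_insert, Finset.coe_singleton, Set.mem_insert_iff, Set.mem_singleton_iff,
          SetLike.mem_coe]
        constructor
        · exact hk g
        · rintro (rfl | rfl)
          · exact Subgroup.one_mem _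
          · exact hz
      have h2 : Nat.card Φ.ker = Nat.card (({1, z} : Finset G) : Set G) := by
        rw [← hset]; rfl
      rw [h2, Nat.card_eq_fintype_card]
      simp only [Fintype.card_coe, Finset.coe_sort_coe]
      exact Finset.card_pair (Ne.symm h1)
    rw [hne h1, hc]
    ring

/-- Elements of a perfect group map into the commutator subgroup. -/
theorem map_mem_commutator_of_perfect (Φ : G →* O) (hG : commutator G = ⊤) (g : G) :
    Φ g ∈ commutator O := by
  have h1 : g ∈ commutator G := by rw [hG]; trivial
  have h2 : Subgroup.map Φ (commutator G) ≤ commutator O := by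
    rw [commutator_def, Subgroup.map_commutator, commutator_def]
    exact Subgroup.commutator_mono le_top le_top
  exact h2 ⟨g, h1, rfl⟩

/-- The centre of a nonabelian simple group. -/
theorem center_eq_bot_of_simple {T : Type*} [Group T] [IsSimpleGroup T] (h : commutator T = ⊤) :
    Subgroup.center T = ⊥ := by
  rcases (Subgroup.Normal.eq_bot_or_eq_top (inferInstance : (Subgroup.center T).Normal)) with h' | h'
  · exact h'
  · exfalso
    have hc : ∀ a b : T, a * b = b * a := by
      intro a b
      have : b ∈ Subgroup.center T := by rw [h']; trivial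
      exact (Subgroup.mem_center_iff.mp this a)
    have h2 : commutator T = ⊥ := by
      rw [commutator_def, eq_bot_iff, Subgroup.commutator_le]
      intro a _ b _
      rw [Subgroup.mem_bot, commutatorElement_eq_one_iff_mul_comm]
      exact hc a b
    rw [h2] at h
    exact bot_ne_top h

end counting


section section_rep

variable {F : Type*} [Field F] {G : Type*} [Group G] {W V : Type*} [AddCommGroup W] [Module F W]
  [AddCommGroup V] [Module F V]

/-- Restrict a representation to a complemented invariant subspace, presented by a section. -/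
noncomputable def repOfSection (τ : G →* Module.End F V) (s : W →ₗ[F] V) (r : V →ₗ[F] W)
    (hrs : ∀ w, r (s w) = w) (hinv : ∀ g w, s (r (τ g (s w))) = τ g (s w)) : G →* (W ≃ₗ[F] W) where
  toFun g := LinearEquiv.ofLinear (r ∘ₗ τ g ∘ₗ s) (r ∘ₗ τ g⁻¹ ∘ₗ s)
    (by
      ext w
      simp only [LinearMap.comp_apply, LinearMap.id_apply]
      rw [hinv, ← Module.End.mul_apply, ← map_mul]
      simp [hrs])
    (by
      ext w
      simp only [LinearMap.comp_apply, LinearMap.id_apply]
      rw [hinv, ← Module.End.mul_apply, ← map_mul]
      simp [hrs])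
  map_one' := by
    ext w
    simp [hrs]
  map_mul' a b := by
    ext w
    simp only [LinearEquiv.ofLinear_apply, LinearMap.comp_apply, LinearEquiv.mul_apply]
    rw [hinv, map_mul, Module.End.mul_apply]

@[simp] theorem repOfSection_apply (τ : G →* Module.End F V) (s : W →ₗ[F] V) (r : V →ₗ[F] W)
    (hrs : ∀ w, r (s w) = w) (hinv : ∀ g w, s (r (τ g (s w))) = τ g (s w)) (g : G) (w : W) :
    repOfSection τ s r hrs hinv g w = r (τ g (s w)) := rfl

end section_rep


section rep0

variable {F : Type*} [Field F] {ι : Type} [Fintype ι] [DecidableEq ι] {G : Type*} [Group G]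

/-- `homOfRep` when the model is the coordinate space itself. -/
noncomputable def homOfRep₀ (Qf : (ι → F) → F) (ρ : G →* ((ι → F) ≃ₗ[F] (ι → F)))
    (hρ : ∀ g v, Qf (ρ g v) = Qf v) : G →* isometryGroup F Qf :=
  homOfRep Qf (LinearEquiv.refl F _) Qf (fun _ => by simp) ρ hρ

theorem mem_ker_homOfRep₀ (Qf : (ι → F) → F) (ρ : G →* ((ι → F) ≃ₗ[F] (ι → F)))
    (hρ : ∀ g v, Qf (ρ g v) = Qf v) (g : G) :
    g ∈ (homOfRep₀ Qf ρ hρ).ker ↔ g ∈ ρ.ker :=
  mem_ker_homOfRep _ _ _ _ _ _ _

end rep0


section map_comm

variable {G O : Type*} [Group G] [Group O]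

/-- Homomorphisms map the commutator subgroup into the commutator subgroup. -/
theorem map_mem_commutator (Φ : G →* O) {g : G} (hg : g ∈ commutator G) : Φ g ∈ commutator O := by
  have h2 : Subgroup.map Φ (commutator G) ≤ commutator O := by
    rw [commutator_def, Subgroup.map_commutator, commutator_def]
    exact Subgroup.commutator_mono le_top le_top
  exact h2 ⟨g, hg, rfl⟩

end map_comm


section index_two

variable {G O : Type*} [Group G] [Group O]

/-- An injective homomorphism from a group `G` to `O` landing in `[O, O]`, with `|O| = 2 |G|`: then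
`[O, O]` has index `2`. -/
theorem index_commutator_eq_two [Finite G] [Finite O] (Φ : G →* O) (hker : Φ.ker = ⊥)
    (hle : ∀ g, Φ g ∈ commutator O) (hO : Nat.card O = 2 * Nat.card G) :
    (commutator O).index = 2 := by
  have h1 := card_mul_card_range Φ
  rw [hker] at h1
  simp only [Subgroup.card_bot, one_mul] at h1
  have h2 := Subgroup.index_mul_card Φ.range
  have hpos : 0 < Nat.card G := Nat.card_pos
  have hidx : Φ.range.index = 2 := by
    rw [h1, hO, mul_comm 2] at h2
    exact (Nat.eq_of_mul_eq_mul_right hpos (by rw [mul_comm] at h2 ⊢; rw [h2, mul_comm]))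
  have hnorm : Φ.range.Normal := Subgroup.normal_of_index_eq_two hidx
  have hcard : Nat.card (O ⧸ Φ.range) = 2 := hidx
  have hprime : Fact (Nat.card (O ⧸ Φ.range)).Prime := ⟨by rw [hcard]; exact Nat.prime_two⟩
  have hcyc : IsCyclic (O ⧸ Φ.range) := isCyclic_of_prime_card rfl
  letI : CommGroup (O ⧸ Φ.range) := IsCyclic.commGroup
  have hle2 : commutator O ≤ (QuotientGroup.mk' Φ.range).ker :=
    Abelianization.commutator_subset_ker _
  rw [QuotientGroup.ker_mk'] at hle2
  have heq : commutator O = Φ.range := by
    apply le_antisymm hle2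
    rintro _ ⟨g, rfl⟩
    exact hle g
  rw [heq, hidx]

end index_two

end Cfsg.Agent.Lib.Classical.LowOmega
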